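import Cfsg.Agent.Lib.Helper6.X32.Defs

/-!
# X32 project (S6002): package [FRC] (enumeration of `R`)
-/

set_option autoImplicit false

namespace Cfsg.Agent.Lib.Helper10.X32

open Cfsg.Agent.Lib.Helper6.X32

universe u

variable {F : Type u} [Field F]

/-- the sign `±1` -/
def sgn (β : Bool) : GL4 F := if β then -1 else 1

/-- the power `x ^ β`, `β ∈ {0, 1}` -/
def pw (x : GL4 F) (β : Bool) : GL4 F := if β then x else 1

/-- `x` commutes with `t` up to the sign `β`. -/
def SgnRel (t x : GL4 F) (β : Bool) : Prop := x * t = sgn β * (t * x)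

theorem sgn_mul_comm (β : Bool) (x : GL4 F) : sgn β * x = x * sgn β := by
  cases β <;> simp [sgn]

theorem sgn_mul_sgn (β β' : Bool) : (sgn β * sgn β' : GL4 F) = sgn (xor β β') := by
  cases β <;> cases β' <;> simp [sgn]

theorem sgnRel_one (t : GL4 F) : SgnRel t 1 false := by
  simp [SgnRel, sgn]

theorem sgnRel_mul {t x y : GL4 F} {β β' : Bool} (hx : SgnRel t x β) (hy : SgnRel t y β') :
    SgnRel t (x * y) (xor β β') := by
  unfold SgnRel at *
  rw [mul_assoc, hy, ← mul_assoc, ← sgn_mul_comm, mul_assoc, ← mul_assoc x, hx, ← sgn_mul_sgn]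
  simp only [mul_assoc]
  rw [← mul_assoc (sgn β'), sgn_mul_comm β' (sgn β), mul_assoc]

theorem sgnRel_sgn {t x : GL4 F} {β : Bool} (ε : Bool) (hx : SgnRel t x β) :
    SgnRel t (sgn ε * x) β := by
  unfold SgnRel at *
  rw [mul_assoc, hx, ← mul_assoc, sgn_mul_comm ε, mul_assoc, ← mul_assoc t, ← sgn_mul_comm ε t,
    mul_assoc]

theorem sgnRel_pw {t x : GL4 F} {σ : Bool} (hx : SgnRel t x σ) (β : Bool) :
    SgnRel t (pw x β) (β && σ) := by
  cases β
  · simpa [pw] using sgnRel_one t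
  · simpa [pw] using hx

theorem neg_one_ne_one (h2 : (2 : F) ≠ 0) : (-1 : GL4 F) ≠ 1 := by
  intro h
  have h1 := congrArg (fun u : GL4 F => (u : M4 F) (Sum.inl 0) (Sum.inl 0)) h
  simp at h1
  apply h2
  linear_combination (-1 : F) * h1

theorem sgn_injective (h2 : (2 : F) ≠ 0) {β β' : Bool} (h : (sgn β : GL4 F) = sgn β') : β = β' := by
  cases β <;> cases β' <;> simp [sgn] at h ⊢
  · exact neg_one_ne_one h2 h.symm
  · exact neg_one_ne_one h2 h

theorem sgnRel_unique (h2 : (2 : F) ≠ 0) {t x : GL4 F} {β β' : Bool} (h : SgnRel t x β)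
    (h' : SgnRel t x β') : β = β' := by
  unfold SgnRel at *
  rw [h] at h'
  exact sgn_injective h2 (mul_right_cancel h')

/-- the enumeration map -/
def enumMap (a b i j : GL4 F) (e : Bool × Bool × Bool × Bool × Bool) : GL4 F :=
  sgn e.1 * ((pw a e.2.1 * pw b e.2.2.1) * (pw i e.2.2.2.1 * pw j e.2.2.2.2))

/-- **[FRC]** enumeration of `R`. -/
theorem pkgFrC : PkgFrC.{u} := by
  intro F _ R a b i j hR hQ
  classical
  have h2 := hR.two_ne
  -- the basic sign relations
  have haa : SgnRel a a false := by simp [SgnRel, sgn]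
  have hab : SgnRel a b true := by
    simp only [SgnRel, sgn, if_true]
    rw [hQ.ab]; simp
  have hai : SgnRel a i false := by simp [SgnRel, sgn, hQ.ia]
  have haj : SgnRel a j false := by simp [SgnRel, sgn, hQ.ja]
  have hba : SgnRel b a true := by
    simp only [SgnRel, sgn, if_true]
    rw [hQ.ab]; simp
  have hbb : SgnRel b b false := by simp [SgnRel, sgn]
  have hbi : SgnRel b i false := by simp [SgnRel, sgn, hQ.ib]
  have hbj : SgnRel b j false := by simp [SgnRel, sgn, hQ.jb]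
  have hia : SgnRel i a false := by simp [SgnRel, sgn, hQ.ia]
  have hib : SgnRel i b false := by simp [SgnRel, sgn, hQ.ib]
  have hii : SgnRel i i false := by simp [SgnRel, sgn]
  have hij : SgnRel i j true := by
    simp only [SgnRel, sgn, if_true]
    rw [hQ.ij]; simp
  have hja : SgnRel j a false := by simp [SgnRel, sgn, hQ.ja]
  have hjb : SgnRel j b false := by simp [SgnRel, sgn, hQ.jb]
  have hji : SgnRel j i true := by
    simp only [SgnRel, sgn, if_true]
    rw [hQ.ij]; simp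
  have hjj : SgnRel j j false := by simp [SgnRel, sgn]
  -- signs of the enumerated elements
  have hsa : ∀ e, SgnRel a (enumMap a b i j e) e.2.2.1 := by
    rintro ⟨ε, p, q, r, s⟩
    have := sgnRel_sgn ε (sgnRel_mul (sgnRel_mul (sgnRel_pw haa p) (sgnRel_pw hab q))
      (sgnRel_mul (sgnRel_pw hai r) (sgnRel_pw haj s)))
    simpa [enumMap] using this
  have hsb : ∀ e, SgnRel b (enumMap a b i j e) e.2.1 := by
    rintro ⟨ε, p, q, r, s⟩
    have := sgnRel_sgn ε (sgnRel_mul (sgnRel_mul (sgnRel_pw hba p) (sgnRel_pw hbb q))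
      (sgnRel_mul (sgnRel_pw hbi r) (sgnRel_pw hbj s)))
    simpa [enumMap] using this
  have hsi : ∀ e, SgnRel i (enumMap a b i j e) e.2.2.2.2 := by
    rintro ⟨ε, p, q, r, s⟩
    have := sgnRel_sgn ε (sgnRel_mul (sgnRel_mul (sgnRel_pw hia p) (sgnRel_pw hib q))
      (sgnRel_mul (sgnRel_pw hii r) (sgnRel_pw hij s)))
    simpa [enumMap] using this
  have hsj : ∀ e, SgnRel j (enumMap a b i j e) e.2.2.2.1 := by
    rintro ⟨ε, p, q, r, s⟩
    have := sgnRel_sgn ε (sgnRel_mul (sgnRel_mul (sgnRel_pw hja p) (sgnRel_pw hjb q))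
      (sgnRel_mul (sgnRel_pw hji r) (sgnRel_pw hjj s)))
    simpa [enumMap] using this
  -- membership
  have hsgnR : ∀ ε : Bool, (sgn ε : GL4 F) ∈ R := by
    intro ε; cases ε
    · simp [sgn]
    · simpa [sgn] using hR.negOne
  have hpwR : ∀ x ∈ R, ∀ β : Bool, pw x β ∈ R := by
    intro x hx β; cases β
    · simp [pw]
    · simpa [pw] using hx
  have hmem : ∀ e, enumMap a b i j e ∈ R := fun e =>
    R.mul_mem (hsgnR _) (R.mul_mem (R.mul_mem (hpwR a hQ.ha _) (hpwR b hQ.hb _))
      (R.mul_mem (hpwR i hQ.hi _) (hpwR j hQ.hj _)))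
  -- injectivity
  have hinj : Function.Injective (fun e : Bool × Bool × Bool × Bool × Bool =>
      (⟨enumMap a b i j e, hmem e⟩ : R)) := by
    rintro ⟨ε, p, q, r, s⟩ ⟨ε', p', q', r', s'⟩ h
    have h' : enumMap a b i j (ε, p, q, r, s) = enumMap a b i j (ε', p', q', r', s') :=
      congrArg Subtype.val h
    have hq : q = q' := sgnRel_unique h2 (hsa (ε, p, q, r, s)) (h' ▸ hsa (ε', p', q', r', s'))
    have hp : p = p' := sgnRel_unique h2 (hsb (ε, p, q, r, s)) (h' ▸ hsb (ε', p', q', r', s'))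
    have hs : s = s' := sgnRel_unique h2 (hsi (ε, p, q, r, s)) (h' ▸ hsi (ε', p', q', r', s'))
    have hr : r = r' := sgnRel_unique h2 (hsj (ε, p, q, r, s)) (h' ▸ hsj (ε', p', q', r', s'))
    subst hq hp hs hr
    have hε : ε = ε' := sgn_injective h2 (mul_right_cancel h')
    rw [hε]
  have hfin : Finite R := Nat.finite_of_card_ne_zero (by rw [hR.card]; norm_num)
  have hbij := hinj.bijective_of_nat_card_le (by
    rw [hR.card, Nat.card_eq_fintype_card]
    simp)
  intro g hg
  obtain ⟨⟨ε, p, q, r, s⟩, he⟩ := hbij.2 ⟨g, hg⟩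
  have hg' : g = sgn ε * ((pw a p * pw b q) * (pw i r * pw j s)) := (congrArg Subtype.val he).symm
  refine ⟨pw a p * pw b q, ?_, pw i r * pw j s, ?_, ?_⟩
  · cases p <;> cases q <;> simp [pw]
  · cases r <;> cases s <;> simp [pw]
  · cases ε
    · left; rw [hg']; simp [sgn]
    · right; rw [hg']; simp [sgn]

end Cfsg.Agent.Lib.Helper10.X32
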