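import Cfsg.Agent.Lib.Helper6.X32.Defs
import Cfsg.Agent.Lib.Helper10.X32.FrC

/-!
# X32 project (S6002): package [FRD] (the frame)
-/

set_option autoImplicit false
set_option linter.unusedSimpArgs false

namespace Cfsg.Agent.Lib.Helper10.X32

open Cfsg.Agent.Lib.Helper6.X32

universe u

set_option maxHeartbeats 1000000 in
/-- **[FRD]** the frame. -/
theorem pkgFrD : PkgFrD.{u} := by
  intro F _ R a b i j hR hQ hE
  classical
  have hneg : (-1 : GL4 F) ≠ 1 := neg_one_ne_one hR.two_ne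
  have r_aa : a * a = 1 := hQ.aa
  have r_aa' : ∀ x : GL4 F, a * (a * x) = x := fun x => by rw [← mul_assoc, r_aa, one_mul]
  have r_bb : b * b = 1 := hQ.bb
  have r_bb' : ∀ x : GL4 F, b * (b * x) = x := fun x => by rw [← mul_assoc, r_bb, one_mul]
  have r_ii : i * i = -1 := hQ.ii
  have r_ii' : ∀ x : GL4 F, i * (i * x) = -x := fun x => by rw [← mul_assoc, r_ii, neg_one_mul]
  have r_jj : j * j = -1 := hQ.jj
  have r_jj' : ∀ x : GL4 F, j * (j * x) = -x := fun x => by rw [← mul_assoc, r_jj, neg_one_mul]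
  have r_ba : b * a = -(a * b) := by rw [hQ.ab, neg_neg]
  have r_ba' : ∀ x : GL4 F, b * (a * x) = -(a * (b * x)) := fun x => by
    rw [← mul_assoc, r_ba, neg_mul, mul_assoc]
  have r_ia : i * a = a * i := hQ.ia
  have r_ia' : ∀ x : GL4 F, i * (a * x) = a * (i * x) := fun x => by
    rw [← mul_assoc, r_ia, mul_assoc]
  have r_ib : i * b = b * i := hQ.ib
  have r_ib' : ∀ x : GL4 F, i * (b * x) = b * (i * x) := fun x => by
    rw [← mul_assoc, r_ib, mul_assoc]
  have r_ja : j * a = a * j := hQ.ja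
  have r_ja' : ∀ x : GL4 F, j * (a * x) = a * (j * x) := fun x => by
    rw [← mul_assoc, r_ja, mul_assoc]
  have r_jb : j * b = b * j := hQ.jb
  have r_jb' : ∀ x : GL4 F, j * (b * x) = b * (j * x) := fun x => by
    rw [← mul_assoc, r_jb, mul_assoc]
  have r_ji : j * i = -(i * j) := by rw [hQ.ij, neg_neg]
  have r_ji' : ∀ x : GL4 F, j * (i * x) = -(i * (j * x)) := fun x => by
    rw [← mul_assoc, r_ji, neg_mul, mul_assoc]
  have hab : a * b ∈ R := R.mul_mem hQ.ha hQ.hb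
  have hmem : ∀ k : Fin 5, ![a, b, a * b * i, a * b * j, a * b * (i * j)] k ∈ R := by
    intro k
    fin_cases k
    · exact hQ.ha
    · exact hQ.hb
    · exact R.mul_mem hab hQ.hi
    · exact R.mul_mem hab hQ.hj
    · exact R.mul_mem hab (R.mul_mem hQ.hi hQ.hj)
  refine ⟨hmem, ?_, ?_, ?_, ?_⟩
  · intro k
    fin_cases k
    · show (a) * (a) = 1
      simp only [mul_assoc, neg_mul, mul_neg, neg_neg, mul_one, one_mul, r_aa, r_aa', r_bb, r_bb', r_ii, r_ii', r_jj, r_jj', r_ba, r_ba', r_ia, r_ia', r_ib, r_ib', r_ja, r_ja', r_jb, r_jb', r_ji, r_ji']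
    · show (b) * (b) = 1
      simp only [mul_assoc, neg_mul, mul_neg, neg_neg, mul_one, one_mul, r_aa, r_aa', r_bb, r_bb', r_ii, r_ii', r_jj, r_jj', r_ba, r_ba', r_ia, r_ia', r_ib, r_ib', r_ja, r_ja', r_jb, r_jb', r_ji, r_ji']
    · show (a * b * i) * (a * b * i) = 1
      simp only [mul_assoc, neg_mul, mul_neg, neg_neg, mul_one, one_mul, r_aa, r_aa', r_bb, r_bb', r_ii, r_ii', r_jj, r_jj', r_ba, r_ba', r_ia, r_ia', r_ib, r_ib', r_ja, r_ja', r_jb, r_jb', r_ji, r_ji']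
    · show (a * b * j) * (a * b * j) = 1
      simp only [mul_assoc, neg_mul, mul_neg, neg_neg, mul_one, one_mul, r_aa, r_aa', r_bb, r_bb', r_ii, r_ii', r_jj, r_jj', r_ba, r_ba', r_ia, r_ia', r_ib, r_ib', r_ja, r_ja', r_jb, r_jb', r_ji, r_ji']
    · show (a * b * (i * j)) * (a * b * (i * j)) = 1
      simp only [mul_assoc, neg_mul, mul_neg, neg_neg, mul_one, one_mul, r_aa, r_aa', r_bb, r_bb', r_ii, r_ii', r_jj, r_jj', r_ba, r_ba', r_ia, r_ia', r_ib, r_ib', r_ja, r_ja', r_jb, r_jb', r_ji, r_ji']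
  · intro k l hkl
    fin_cases k <;> fin_cases l
    · exact absurd rfl hkl
    · show (a) * (b) = -((b) * (a))
      simp only [mul_assoc, neg_mul, mul_neg, neg_neg, mul_one, one_mul, r_aa, r_aa', r_bb, r_bb', r_ii, r_ii', r_jj, r_jj', r_ba, r_ba', r_ia, r_ia', r_ib, r_ib', r_ja, r_ja', r_jb, r_jb', r_ji, r_ji']
    · show (a) * (a * b * i) = -((a * b * i) * (a))
      simp only [mul_assoc, neg_mul, mul_neg, neg_neg, mul_one, one_mul, r_aa, r_aa', r_bb, r_bb', r_ii, r_ii', r_jj, r_jj', r_ba, r_ba', r_ia, r_ia', r_ib, r_ib', r_ja, r_ja', r_jb, r_jb', r_ji, r_ji']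
    · show (a) * (a * b * j) = -((a * b * j) * (a))
      simp only [mul_assoc, neg_mul, mul_neg, neg_neg, mul_one, one_mul, r_aa, r_aa', r_bb, r_bb', r_ii, r_ii', r_jj, r_jj', r_ba, r_ba', r_ia, r_ia', r_ib, r_ib', r_ja, r_ja', r_jb, r_jb', r_ji, r_ji']
    · show (a) * (a * b * (i * j)) = -((a * b * (i * j)) * (a))
      simp only [mul_assoc, neg_mul, mul_neg, neg_neg, mul_one, one_mul, r_aa, r_aa', r_bb, r_bb', r_ii, r_ii', r_jj, r_jj', r_ba, r_ba', r_ia, r_ia', r_ib, r_ib', r_ja, r_ja', r_jb, r_jb', r_ji, r_ji']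
    · show (b) * (a) = -((a) * (b))
      simp only [mul_assoc, neg_mul, mul_neg, neg_neg, mul_one, one_mul, r_aa, r_aa', r_bb, r_bb', r_ii, r_ii', r_jj, r_jj', r_ba, r_ba', r_ia, r_ia', r_ib, r_ib', r_ja, r_ja', r_jb, r_jb', r_ji, r_ji']
    · exact absurd rfl hkl
    · show (b) * (a * b * i) = -((a * b * i) * (b))
      simp only [mul_assoc, neg_mul, mul_neg, neg_neg, mul_one, one_mul, r_aa, r_aa', r_bb, r_bb', r_ii, r_ii', r_jj, r_jj', r_ba, r_ba', r_ia, r_ia', r_ib, r_ib', r_ja, r_ja', r_jb, r_jb', r_ji, r_ji']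
    · show (b) * (a * b * j) = -((a * b * j) * (b))
      simp only [mul_assoc, neg_mul, mul_neg, neg_neg, mul_one, one_mul, r_aa, r_aa', r_bb, r_bb', r_ii, r_ii', r_jj, r_jj', r_ba, r_ba', r_ia, r_ia', r_ib, r_ib', r_ja, r_ja', r_jb, r_jb', r_ji, r_ji']
    · show (b) * (a * b * (i * j)) = -((a * b * (i * j)) * (b))
      simp only [mul_assoc, neg_mul, mul_neg, neg_neg, mul_one, one_mul, r_aa, r_aa', r_bb, r_bb', r_ii, r_ii', r_jj, r_jj', r_ba, r_ba', r_ia, r_ia', r_ib, r_ib', r_ja, r_ja', r_jb, r_jb', r_ji, r_ji']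
    · show (a * b * i) * (a) = -((a) * (a * b * i))
      simp only [mul_assoc, neg_mul, mul_neg, neg_neg, mul_one, one_mul, r_aa, r_aa', r_bb, r_bb', r_ii, r_ii', r_jj, r_jj', r_ba, r_ba', r_ia, r_ia', r_ib, r_ib', r_ja, r_ja', r_jb, r_jb', r_ji, r_ji']
    · show (a * b * i) * (b) = -((b) * (a * b * i))
      simp only [mul_assoc, neg_mul, mul_neg, neg_neg, mul_one, one_mul, r_aa, r_aa', r_bb, r_bb', r_ii, r_ii', r_jj, r_jj', r_ba, r_ba', r_ia, r_ia', r_ib, r_ib', r_ja, r_ja', r_jb, r_jb', r_ji, r_ji']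
    · exact absurd rfl hkl
    · show (a * b * i) * (a * b * j) = -((a * b * j) * (a * b * i))
      simp only [mul_assoc, neg_mul, mul_neg, neg_neg, mul_one, one_mul, r_aa, r_aa', r_bb, r_bb', r_ii, r_ii', r_jj, r_jj', r_ba, r_ba', r_ia, r_ia', r_ib, r_ib', r_ja, r_ja', r_jb, r_jb', r_ji, r_ji']
    · show (a * b * i) * (a * b * (i * j)) = -((a * b * (i * j)) * (a * b * i))
      simp only [mul_assoc, neg_mul, mul_neg, neg_neg, mul_one, one_mul, r_aa, r_aa', r_bb, r_bb', r_ii, r_ii', r_jj, r_jj', r_ba, r_ba', r_ia, r_ia', r_ib, r_ib', r_ja, r_ja', r_jb, r_jb', r_ji, r_ji']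
    · show (a * b * j) * (a) = -((a) * (a * b * j))
      simp only [mul_assoc, neg_mul, mul_neg, neg_neg, mul_one, one_mul, r_aa, r_aa', r_bb, r_bb', r_ii, r_ii', r_jj, r_jj', r_ba, r_ba', r_ia, r_ia', r_ib, r_ib', r_ja, r_ja', r_jb, r_jb', r_ji, r_ji']
    · show (a * b * j) * (b) = -((b) * (a * b * j))
      simp only [mul_assoc, neg_mul, mul_neg, neg_neg, mul_one, one_mul, r_aa, r_aa', r_bb, r_bb', r_ii, r_ii', r_jj, r_jj', r_ba, r_ba', r_ia, r_ia', r_ib, r_ib', r_ja, r_ja', r_jb, r_jb', r_ji, r_ji']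
    · show (a * b * j) * (a * b * i) = -((a * b * i) * (a * b * j))
      simp only [mul_assoc, neg_mul, mul_neg, neg_neg, mul_one, one_mul, r_aa, r_aa', r_bb, r_bb', r_ii, r_ii', r_jj, r_jj', r_ba, r_ba', r_ia, r_ia', r_ib, r_ib', r_ja, r_ja', r_jb, r_jb', r_ji, r_ji']
    · exact absurd rfl hkl
    · show (a * b * j) * (a * b * (i * j)) = -((a * b * (i * j)) * (a * b * j))
      simp only [mul_assoc, neg_mul, mul_neg, neg_neg, mul_one, one_mul, r_aa, r_aa', r_bb, r_bb', r_ii, r_ii', r_jj, r_jj', r_ba, r_ba', r_ia, r_ia', r_ib, r_ib', r_ja, r_ja', r_jb, r_jb', r_ji, r_ji']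
    · show (a * b * (i * j)) * (a) = -((a) * (a * b * (i * j)))
      simp only [mul_assoc, neg_mul, mul_neg, neg_neg, mul_one, one_mul, r_aa, r_aa', r_bb, r_bb', r_ii, r_ii', r_jj, r_jj', r_ba, r_ba', r_ia, r_ia', r_ib, r_ib', r_ja, r_ja', r_jb, r_jb', r_ji, r_ji']
    · show (a * b * (i * j)) * (b) = -((b) * (a * b * (i * j)))
      simp only [mul_assoc, neg_mul, mul_neg, neg_neg, mul_one, one_mul, r_aa, r_aa', r_bb, r_bb', r_ii, r_ii', r_jj, r_jj', r_ba, r_ba', r_ia, r_ia', r_ib, r_ib', r_ja, r_ja', r_jb, r_jb', r_ji, r_ji']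
    · show (a * b * (i * j)) * (a * b * i) = -((a * b * i) * (a * b * (i * j)))
      simp only [mul_assoc, neg_mul, mul_neg, neg_neg, mul_one, one_mul, r_aa, r_aa', r_bb, r_bb', r_ii, r_ii', r_jj, r_jj', r_ba, r_ba', r_ia, r_ia', r_ib, r_ib', r_ja, r_ja', r_jb, r_jb', r_ji, r_ji']
    · show (a * b * (i * j)) * (a * b * j) = -((a * b * j) * (a * b * (i * j)))
      simp only [mul_assoc, neg_mul, mul_neg, neg_neg, mul_one, one_mul, r_aa, r_aa', r_bb, r_bb', r_ii, r_ii', r_jj, r_jj', r_ba, r_ba', r_ia, r_ia', r_ib, r_ib', r_ja, r_ja', r_jb, r_jb', r_ji, r_ji']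
    · exact absurd rfl hkl
  · intro g hg hgg
    obtain ⟨d, hd, c, hc, hgdc⟩ := hE g hg
    simp only [Set.mem_insert_iff, Set.mem_singleton_iff] at hd hc
    rcases hd with hd | hd | hd | hd <;> rcases hc with hc | hc | hc | hc <;>
      rcases hgdc with hg' | hg'
    · left
      rw [hg', hd, hc, mul_one]
    · right; left
      rw [hg', hd, hc, mul_one]
    · exfalso
      rw [hg', hd, hc] at hgg
      simp only [mul_assoc, neg_mul, mul_neg, neg_neg, mul_one, one_mul, r_aa, r_aa', r_bb, r_bb', r_ii, r_ii', r_jj, r_jj', r_ba, r_ba', r_ia, r_ia', r_ib, r_ib', r_ja, r_ja', r_jb, r_jb', r_ji, r_ji'] at hgg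
      exact hneg hgg
    · exfalso
      rw [hg', hd, hc] at hgg
      simp only [mul_assoc, neg_mul, mul_neg, neg_neg, mul_one, one_mul, r_aa, r_aa', r_bb, r_bb', r_ii, r_ii', r_jj, r_jj', r_ba, r_ba', r_ia, r_ia', r_ib, r_ib', r_ja, r_ja', r_jb, r_jb', r_ji, r_ji'] at hgg
      exact hneg hgg
    · exfalso
      rw [hg', hd, hc] at hgg
      simp only [mul_assoc, neg_mul, mul_neg, neg_neg, mul_one, one_mul, r_aa, r_aa', r_bb, r_bb', r_ii, r_ii', r_jj, r_jj', r_ba, r_ba', r_ia, r_ia', r_ib, r_ib', r_ja, r_ja', r_jb, r_jb', r_ji, r_ji'] at hgg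
      exact hneg hgg
    · exfalso
      rw [hg', hd, hc] at hgg
      simp only [mul_assoc, neg_mul, mul_neg, neg_neg, mul_one, one_mul, r_aa, r_aa', r_bb, r_bb', r_ii, r_ii', r_jj, r_jj', r_ba, r_ba', r_ia, r_ia', r_ib, r_ib', r_ja, r_ja', r_jb, r_jb', r_ji, r_ji'] at hgg
      exact hneg hgg
    · exfalso
      rw [hg', hd, hc] at hgg
      simp only [mul_assoc, neg_mul, mul_neg, neg_neg, mul_one, one_mul, r_aa, r_aa', r_bb, r_bb', r_ii, r_ii', r_jj, r_jj', r_ba, r_ba', r_ia, r_ia', r_ib, r_ib', r_ja, r_ja', r_jb, r_jb', r_ji, r_ji'] at hgg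
      exact hneg hgg
    · exfalso
      rw [hg', hd, hc] at hgg
      simp only [mul_assoc, neg_mul, mul_neg, neg_neg, mul_one, one_mul, r_aa, r_aa', r_bb, r_bb', r_ii, r_ii', r_jj, r_jj', r_ba, r_ba', r_ia, r_ia', r_ib, r_ib', r_ja, r_ja', r_jb, r_jb', r_ji, r_ji'] at hgg
      exact hneg hgg
    · right; right
      exact ⟨0, Or.inl (by rw [hg', hd, hc, mul_one]; rfl)⟩
    · right; right
      exact ⟨0, Or.inr (by rw [hg', hd, hc, mul_one]; rfl)⟩
    · exfalso
      rw [hg', hd, hc] at hgg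
      simp only [mul_assoc, neg_mul, mul_neg, neg_neg, mul_one, one_mul, r_aa, r_aa', r_bb, r_bb', r_ii, r_ii', r_jj, r_jj', r_ba, r_ba', r_ia, r_ia', r_ib, r_ib', r_ja, r_ja', r_jb, r_jb', r_ji, r_ji'] at hgg
      exact hneg hgg
    · exfalso
      rw [hg', hd, hc] at hgg
      simp only [mul_assoc, neg_mul, mul_neg, neg_neg, mul_one, one_mul, r_aa, r_aa', r_bb, r_bb', r_ii, r_ii', r_jj, r_jj', r_ba, r_ba', r_ia, r_ia', r_ib, r_ib', r_ja, r_ja', r_jb, r_jb', r_ji, r_ji'] at hgg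
      exact hneg hgg
    · exfalso
      rw [hg', hd, hc] at hgg
      simp only [mul_assoc, neg_mul, mul_neg, neg_neg, mul_one, one_mul, r_aa, r_aa', r_bb, r_bb', r_ii, r_ii', r_jj, r_jj', r_ba, r_ba', r_ia, r_ia', r_ib, r_ib', r_ja, r_ja', r_jb, r_jb', r_ji, r_ji'] at hgg
      exact hneg hgg
    · exfalso
      rw [hg', hd, hc] at hgg
      simp only [mul_assoc, neg_mul, mul_neg, neg_neg, mul_one, one_mul, r_aa, r_aa', r_bb, r_bb', r_ii, r_ii', r_jj, r_jj', r_ba, r_ba', r_ia, r_ia', r_ib, r_ib', r_ja, r_ja', r_jb, r_jb', r_ji, r_ji'] at hgg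
      exact hneg hgg
    · exfalso
      rw [hg', hd, hc] at hgg
      simp only [mul_assoc, neg_mul, mul_neg, neg_neg, mul_one, one_mul, r_aa, r_aa', r_bb, r_bb', r_ii, r_ii', r_jj, r_jj', r_ba, r_ba', r_ia, r_ia', r_ib, r_ib', r_ja, r_ja', r_jb, r_jb', r_ji, r_ji'] at hgg
      exact hneg hgg
    · exfalso
      rw [hg', hd, hc] at hgg
      simp only [mul_assoc, neg_mul, mul_neg, neg_neg, mul_one, one_mul, r_aa, r_aa', r_bb, r_bb', r_ii, r_ii', r_jj, r_jj', r_ba, r_ba', r_ia, r_ia', r_ib, r_ib', r_ja, r_ja', r_jb, r_jb', r_ji, r_ji'] at hgg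
      exact hneg hgg
    · right; right
      exact ⟨1, Or.inl (by rw [hg', hd, hc, mul_one]; rfl)⟩
    · right; right
      exact ⟨1, Or.inr (by rw [hg', hd, hc, mul_one]; rfl)⟩
    · exfalso
      rw [hg', hd, hc] at hgg
      simp only [mul_assoc, neg_mul, mul_neg, neg_neg, mul_one, one_mul, r_aa, r_aa', r_bb, r_bb', r_ii, r_ii', r_jj, r_jj', r_ba, r_ba', r_ia, r_ia', r_ib, r_ib', r_ja, r_ja', r_jb, r_jb', r_ji, r_ji'] at hgg
      exact hneg hgg
    · exfalso
      rw [hg', hd, hc] at hgg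
      simp only [mul_assoc, neg_mul, mul_neg, neg_neg, mul_one, one_mul, r_aa, r_aa', r_bb, r_bb', r_ii, r_ii', r_jj, r_jj', r_ba, r_ba', r_ia, r_ia', r_ib, r_ib', r_ja, r_ja', r_jb, r_jb', r_ji, r_ji'] at hgg
      exact hneg hgg
    · exfalso
      rw [hg', hd, hc] at hgg
      simp only [mul_assoc, neg_mul, mul_neg, neg_neg, mul_one, one_mul, r_aa, r_aa', r_bb, r_bb', r_ii, r_ii', r_jj, r_jj', r_ba, r_ba', r_ia, r_ia', r_ib, r_ib', r_ja, r_ja', r_jb, r_jb', r_ji, r_ji'] at hgg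
      exact hneg hgg
    · exfalso
      rw [hg', hd, hc] at hgg
      simp only [mul_assoc, neg_mul, mul_neg, neg_neg, mul_one, one_mul, r_aa, r_aa', r_bb, r_bb', r_ii, r_ii', r_jj, r_jj', r_ba, r_ba', r_ia, r_ia', r_ib, r_ib', r_ja, r_ja', r_jb, r_jb', r_ji, r_ji'] at hgg
      exact hneg hgg
    · exfalso
      rw [hg', hd, hc] at hgg
      simp only [mul_assoc, neg_mul, mul_neg, neg_neg, mul_one, one_mul, r_aa, r_aa', r_bb, r_bb', r_ii, r_ii', r_jj, r_jj', r_ba, r_ba', r_ia, r_ia', r_ib, r_ib', r_ja, r_ja', r_jb, r_jb', r_ji, r_ji'] at hgg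
      exact hneg hgg
    · exfalso
      rw [hg', hd, hc] at hgg
      simp only [mul_assoc, neg_mul, mul_neg, neg_neg, mul_one, one_mul, r_aa, r_aa', r_bb, r_bb', r_ii, r_ii', r_jj, r_jj', r_ba, r_ba', r_ia, r_ia', r_ib, r_ib', r_ja, r_ja', r_jb, r_jb', r_ji, r_ji'] at hgg
      exact hneg hgg
    · exfalso
      rw [hg', hd, hc] at hgg
      simp only [mul_assoc, neg_mul, mul_neg, neg_neg, mul_one, one_mul, r_aa, r_aa', r_bb, r_bb', r_ii, r_ii', r_jj, r_jj', r_ba, r_ba', r_ia, r_ia', r_ib, r_ib', r_ja, r_ja', r_jb, r_jb', r_ji, r_ji'] at hgg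
      exact hneg hgg
    · exfalso
      rw [hg', hd, hc] at hgg
      simp only [mul_assoc, neg_mul, mul_neg, neg_neg, mul_one, one_mul, r_aa, r_aa', r_bb, r_bb', r_ii, r_ii', r_jj, r_jj', r_ba, r_ba', r_ia, r_ia', r_ib, r_ib', r_ja, r_ja', r_jb, r_jb', r_ji, r_ji'] at hgg
      exact hneg hgg
    · right; right
      exact ⟨2, Or.inl (by rw [hg', hd, hc]; rfl)⟩
    · right; right
      exact ⟨2, Or.inr (by rw [hg', hd, hc]; rfl)⟩
    · right; right
      exact ⟨3, Or.inl (by rw [hg', hd, hc]; rfl)⟩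
    · right; right
      exact ⟨3, Or.inr (by rw [hg', hd, hc]; rfl)⟩
    · right; right
      exact ⟨4, Or.inl (by rw [hg', hd, hc]; rfl)⟩
    · right; right
      exact ⟨4, Or.inr (by rw [hg', hd, hc]; rfl)⟩
  · apply le_antisymm
    · rw [Subgroup.closure_le]
      rintro _ ⟨k, rfl⟩
      exact hmem k
    · intro g hg
      have ha : a ∈ Subgroup.closure (Set.range ![a, b, a * b * i, a * b * j, a * b * (i * j)]) :=
        Subgroup.subset_closure ⟨0, rfl⟩
      have hb : b ∈ Subgroup.closure (Set.range ![a, b, a * b * i, a * b * j, a * b * (i * j)]) :=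
        Subgroup.subset_closure ⟨1, rfl⟩
      have h2 : a * b * i ∈ Subgroup.closure (Set.range ![a, b, a * b * i, a * b * j, a * b * (i * j)]) :=
        Subgroup.subset_closure ⟨2, rfl⟩
      have h3 : a * b * j ∈ Subgroup.closure (Set.range ![a, b, a * b * i, a * b * j, a * b * (i * j)]) :=
        Subgroup.subset_closure ⟨3, rfl⟩
      have hab' := Subgroup.mul_mem _ ha hb
      have hi : i ∈ Subgroup.closure (Set.range ![a, b, a * b * i, a * b * j, a * b * (i * j)]) := by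
        have := Subgroup.mul_mem _ (Subgroup.inv_mem _ hab') h2
        rwa [show (a * b)⁻¹ * (a * b * i) = i by group] at this
      have hj : j ∈ Subgroup.closure (Set.range ![a, b, a * b * i, a * b * j, a * b * (i * j)]) := by
        have := Subgroup.mul_mem _ (Subgroup.inv_mem _ hab') h3
        rwa [show (a * b)⁻¹ * (a * b * j) = j by group] at this
      have hm1 : (-1 : GL4 F) ∈ Subgroup.closure (Set.range ![a, b, a * b * i, a * b * j, a * b * (i * j)]) := by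
        have := Subgroup.mul_mem _ hab' hab'
        rwa [show (a * b) * (a * b) = -1 by simp only [mul_assoc, neg_mul, mul_neg, neg_neg, mul_one, one_mul, r_aa, r_aa', r_bb, r_bb', r_ii, r_ii', r_jj, r_jj', r_ba, r_ba', r_ia, r_ia', r_ib, r_ib', r_ja, r_ja', r_jb, r_jb', r_ji, r_ji']] at this
      obtain ⟨d, hd, c, hc, hgdc⟩ := hE g hg
      simp only [Set.mem_insert_iff, Set.mem_singleton_iff] at hd hc
      have hdK : d ∈ Subgroup.closure (Set.range ![a, b, a * b * i, a * b * j, a * b * (i * j)]) := by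
        rcases hd with hd | hd | hd | hd <;> rw [hd]
        · exact Subgroup.one_mem _
        · exact ha
        · exact hb
        · exact hab'
      have hcK : c ∈ Subgroup.closure (Set.range ![a, b, a * b * i, a * b * j, a * b * (i * j)]) := by
        rcases hc with hc | hc | hc | hc <;> rw [hc]
        · exact Subgroup.one_mem _
        · exact hi
        · exact hj
        · exact Subgroup.mul_mem _ hi hj
      rcases hgdc with hg' | hg'
      · rw [hg']; exact Subgroup.mul_mem _ hdK hcK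
      · rw [hg', ← neg_one_mul]; exact Subgroup.mul_mem _ hm1 (Subgroup.mul_mem _ hdK hcK)

end Cfsg.Agent.Lib.Helper10.X32
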